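import Mathlib.Algebra.Module.ZMod
import Mathlib.Algebra.Field.ZMod
import Mathlib.FieldTheory.Finite.Basic
import Mathlib.GroupTheory.Perm.Cycle.Type
import Mathlib.GroupTheory.SpecificGroups.Cyclic
import Mathlib.LinearAlgebra.Span.Basic

/-!
Automorphisms of prime order `q` of `p`-groups, with `q` prime to `p * (p - 1)`.
-/

set_option autoImplicit false

open scoped commutatorElement

namespace CfsgLib.OddLocal

variable {P : Type*} [Group P]

/-- The restriction of an automorphism to an invariant subgroup. -/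
def restrictAut (σ : MulAut P) (N : Subgroup P) (h : N.map σ.toMonoidHom = N) : MulAut N :=
  (σ.subgroupMap N).trans (MulEquiv.subgroupCongr h)

@[simp]
theorem coe_restrictAut (σ : MulAut P) (N : Subgroup P) (h : N.map σ.toMonoidHom = N) (x : N) :
    ((restrictAut σ N h x : N) : P) = σ x := rfl

theorem restrictAut_pow (σ : MulAut P) (N : Subgroup P) (h : N.map σ.toMonoidHom = N) (k : ℕ)
    (x : N) : (((restrictAut σ N h ^ k) x : N) : P) = (σ ^ k) x := by
  induction k with
  | zero => simp
  | succ k ih => rw [pow_succ', MulAut.mul_apply, coe_restrictAut, ih, pow_succ', MulAut.mul_apply]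

theorem map_eq_of_le [Finite P] {σ : MulAut P} {N : Subgroup P} (h : ∀ n ∈ N, σ n ∈ N) :
    N.map σ.toMonoidHom = N := by
  refine Subgroup.eq_of_le_of_card_ge ?_ (Subgroup.card_map_of_injective σ.injective).ge
  rintro _ ⟨n, hn, rfl⟩
  exact h n hn

variable [Finite P] {p : ℕ} [hp : Fact p.Prime]

/-- An automorphism of prime order `q ∤ p (p - 1)` of a cyclic `p`-group is trivial. -/
theorem aut_cyclic_eq_one {Q : Type*} [Group Q] [Finite Q] [IsCyclic Q] (hQ : IsPGroup p Q)
    {q : ℕ} (hq : q.Prime) (hqp : ¬ q ∣ p * (p - 1)) {τ : MulAut Q} (hτ : τ ^ q = 1) : τ = 1 := by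
  have h1 : orderOf τ ∣ q := orderOf_dvd_of_pow_eq_one hτ
  rcases (Nat.dvd_prime hq).mp h1 with h | h
  · exact orderOf_eq_one_iff.mp h
  · exfalso
    have h2 : q ∣ Nat.card (MulAut Q) := h ▸ orderOf_dvd_natCard τ
    rw [IsCyclic.card_mulAut] at h2
    obtain ⟨n, hn⟩ := IsPGroup.iff_card.mp hQ
    rw [hn] at h2
    rcases n with _ | n
    · rw [pow_zero, Nat.totient_one] at h2
      exact hq.ne_one (Nat.dvd_one.mp h2)
    · rw [Nat.totient_prime_pow hp.out n.succ_pos] at h2
      apply hqp
      rcases hq.dvd_mul.mp h2 with h3 | h3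
      · exact (hq.dvd_of_dvd_pow h3).mul_right _
      · exact h3.mul_left _

variable {σ : MulAut P} {q : ℕ}

/-- A coset fixed modulo an invariant subgroup contains a fixed point. -/
theorem exists_fixed_in_coset (hP : IsPGroup p P) (hq : q.Prime) (hqp : q ≠ p) (hσ : σ ^ q = 1)
    (N : Subgroup P) (hN : ∀ n ∈ N, σ n ∈ N) {x : P} (hx : x⁻¹ * σ x ∈ N) :
    ∃ n ∈ N, σ (x * n) = x * n := by
  classical
  haveI := Fintype.ofFinite N
  haveI : Fact q.Prime := ⟨hq⟩
  have hmap := map_eq_of_le hN
  let f : Equiv.Perm N := (restrictAut σ N hmap).toEquiv.trans (Equiv.mulLeft ⟨x⁻¹ * σ x, hx⟩)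
  have hf : ∀ (k : ℕ) (n : N), σ^[k] (x * n) = x * ((f ^ k) n : N) := by
    intro k
    induction k with
    | zero => simp
    | succ k ih =>
      intro n
      rw [Function.iterate_succ_apply', ih, pow_succ', Equiv.Perm.mul_apply, map_mul]
      simp [f, mul_assoc]
  have hfq : f ^ q ^ 1 = 1 := by
    rw [pow_one]
    refine Equiv.ext fun n => Subtype.ext ?_
    have h1 := hf q n
    have hiter : ∀ (k : ℕ) (y : P), σ^[k] y = (σ ^ k) y := by
      intro k
      induction k with
      | zero => simp
      | succ k ih => intro y; rw [Function.iterate_succ_apply', ih, pow_succ', MulAut.mul_apply]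
    have h2 := hiter q (x * (n : P))
    rw [h2, hσ, MulAut.one_apply] at h1
    exact (mul_left_cancel h1).symm
  have hnd : ¬ q ∣ Fintype.card N := by
    rw [← Nat.card_eq_fintype_card]
    obtain ⟨m, hm⟩ := IsPGroup.iff_card.mp (hP.to_subgroup N)
    rw [hm]
    exact fun h => hqp ((Nat.prime_dvd_prime_iff_eq hq hp.out).mp (hq.dvd_of_dvd_pow h))
  obtain ⟨n, hn⟩ := Equiv.Perm.exists_fixed_point_of_prime hnd hfq
  refine ⟨n, n.2, ?_⟩
  have h1 := hf 1 n
  rw [Function.iterate_one, pow_one, hn] at h1
  exact h1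

/-- A fixed-point-free automorphism is fixed-point-free modulo invariant subgroups. -/
theorem mem_of_fixed_mod (hP : IsPGroup p P) (hq : q.Prime) (hqp : q ≠ p) (hσ : σ ^ q = 1)
    (hfree : ∀ x, σ x = x → x = 1)
    (N : Subgroup P) (hN : ∀ n ∈ N, σ n ∈ N) {x : P} (hx : x⁻¹ * σ x ∈ N) : x ∈ N := by
  obtain ⟨n, hn, hfix⟩ := exists_fixed_in_coset hP hq hqp hσ N hN hx
  rw [eq_inv_of_mul_eq_one_left (hfree _ hfix)]
  exact inv_mem hn

/-- An invariant section that is cyclic is centralised. -/
theorem mul_inv_mem_of_cyclic_section (hP : IsPGroup p P) (hq : q.Prime)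
    (hqp : ¬ q ∣ p * (p - 1)) (hσ : σ ^ q = 1) {M M₀ : Subgroup P}
    (hM : ∀ m ∈ M, σ m ∈ M) (hM₀ : ∀ m ∈ M₀, σ m ∈ M₀)
    [hn : (M₀.subgroupOf M).Normal] [IsCyclic (M ⧸ M₀.subgroupOf M)]
    {m : P} (hm : m ∈ M) : m⁻¹ * σ m ∈ M₀ := by
  set N := M₀.subgroupOf M
  have hmapM := map_eq_of_le hM
  have hmapN : N.map (restrictAut σ M hmapM).toMonoidHom = N :=
    map_eq_of_le fun n hn => hM₀ n hn
  set τ : MulAut (M ⧸ N) := QuotientGroup.congr N N (restrictAut σ M hmapM) hmapN with hτdef
  have hτ : τ ^ q = 1 := by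
    refine MulEquiv.ext fun y => ?_
    obtain ⟨y, rfl⟩ := QuotientGroup.mk_surjective y
    have h1 : ∀ k : ℕ, (τ ^ k) (y : M ⧸ N) = (((restrictAut σ M hmapM) ^ k) y : M) := by
      intro k
      induction k with
      | zero => simp
      | succ k ih => rw [pow_succ', MulAut.mul_apply, ih, pow_succ', MulAut.mul_apply]; rfl
    rw [h1 q, MulAut.one_apply]
    congr 1
    apply Subtype.ext
    rw [restrictAut_pow, hσ, MulAut.one_apply]
  have h2 := MulEquiv.congr_fun (aut_cyclic_eq_one ((hP.to_subgroup M).to_quotient N) hq hqp hτ)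
    ((⟨m, hm⟩ : M) : M ⧸ N)
  rw [MulAut.one_apply, hτdef] at h2
  have h3 := QuotientGroup.eq.mp h2.symm
  exact Subgroup.mem_subgroupOf.mp h3

/-- Stability across one step of order `p`. -/
theorem fixes_step (hP : IsPGroup p P) (hq : q.Prime)
    (hqp : ¬ q ∣ p * (p - 1)) (hσ : σ ^ q = 1) {M M₀ : Subgroup P} (hle : M₀ ≤ M)
    (hM : ∀ m ∈ M, σ m ∈ M) (hn : ∀ m ∈ M, ∀ n ∈ M₀, m * n * m⁻¹ ∈ M₀)
    (hc : Nat.card M = p * Nat.card M₀) (hfix : ∀ n ∈ M₀, σ n = n) : ∀ m ∈ M, σ m = m := by
  intro m hm
  haveI : (M₀.subgroupOf M).Normal := ⟨fun n hn' g => hn g g.2 n hn'⟩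
  haveI : IsCyclic (M ⧸ M₀.subgroupOf M) := by
    refine isCyclic_of_prime_card (p := p) ?_
    have h := (M₀.subgroupOf M).card_mul_index
    rw [Nat.card_congr (Subgroup.subgroupOfEquivOfLe hle).toEquiv, hc, mul_comm p] at h
    rw [← Subgroup.index_eq_card]
    exact Nat.eq_of_mul_eq_mul_left Nat.card_pos h
  have hu := mul_inv_mem_of_cyclic_section hP hq hqp hσ hM
    (fun n hn' => by rw [hfix n hn']; exact hn') hm
  obtain ⟨n, hn', hfx⟩ := exists_fixed_in_coset hP hq
    (fun h => hqp (by rw [h]; exact dvd_mul_right p _)) hσ M₀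
    (fun n hn' => by rw [hfix n hn']; exact hn') hu
  rw [map_mul, hfix n hn'] at hfx
  exact mul_right_cancel hfx

open Polynomial in
/-- An exponent-`p` abelian group with an automorphism of order `q ∣ p + 1` is generated by the
subgroups where `w ↦ τ w * τ⁻¹ w` is a power map. -/
theorem iSup_eigen_eq_top {W : Type*} [CommGroup W] [Finite W] (hexp : ∀ w : W, w ^ p = 1)
    (hq1 : q ∣ p + 1) (τ : MulAut W) (hτ : τ ^ q = 1) :
    ∃ E : ZMod p → Subgroup W, (⨆ c, E c) = ⊤ ∧ (∀ c, ∀ w ∈ E c, τ w ∈ E c) ∧
      ∀ c, ∀ w ∈ E c, τ w * τ.symm w = w ^ c.val := by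
  classical
  letI : Module (ZMod p) (Additive W) :=
    AddCommGroup.zmodModule (n := p) fun x => congrArg Additive.ofMul (hexp x.toMul)
  let f : Module.End (ZMod p) (Additive W) :=
    AddMonoidHom.toZModLinearMap p (MonoidHom.toAdditive τ.toMonoidHom)
  have hfpow : ∀ (k : ℕ) (v : Additive W), (f ^ k) v = Additive.ofMul ((τ ^ k) v.toMul) := by
    intro k
    induction k with
    | zero => intro v; simp
    | succ k ih => intro v; rw [pow_succ', Module.End.mul_apply, ih, pow_succ', MulAut.mul_apply]; rfl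
  have hfp : f ^ (p + 1) = 1 := by
    refine LinearMap.ext fun v => ?_
    obtain ⟨j, hj⟩ := hq1
    rw [hfpow, hj, pow_mul, hτ, one_pow]
    rfl
  set T : Module.End (ZMod p) (Additive W) := f + f ^ p with hT
  have hTp : T ^ p = T := by
    have hp2' : f ^ (p * p) = f := by
      obtain ⟨r, hr⟩ : ∃ r, p * p = (p + 1) * r + 1 := by
        refine ⟨p - 1, ?_⟩
        have := hp.out.one_lt
        obtain ⟨s, rfl⟩ : ∃ s, p = s + 1 := ⟨p - 1, by omega⟩
        simp only [Nat.add_sub_cancel]
        ring
      rw [hr, pow_succ, pow_mul, hfp, one_pow, one_mul]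
    have hchar : ∀ x y : Module.End (ZMod p) (Additive W), Commute x y →
        (x + y) ^ p = x ^ p + y ^ p := by
      intro x y h
      obtain ⟨r, hr⟩ := h.exists_add_pow_prime_eq hp.out
      rw [hr, show ((p : Module.End (ZMod p) (Additive W))) = 0 by
        rw [← map_natCast (algebraMap (ZMod p) (Module.End (ZMod p) (Additive W))),
          ZMod.natCast_self, map_zero]]
      simp
    rw [hT, hchar _ _ (Commute.self_pow f p), ← pow_mul, hp2', add_comm]
  let K : ZMod p → Submodule (ZMod p) (Additive W) :=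
    fun c => LinearMap.ker (T - c • (1 : Module.End (ZMod p) (Additive W)))
  have hmemK : ∀ c v, v ∈ K c ↔ T v = c • v := fun c v => by
    simp [K, sub_eq_zero]
  have key : ∀ (s : Finset (ZMod p)) (v : Additive W),
      (aeval T (∏ c ∈ s, (X - C c))) v = 0 → v ∈ ⨆ c, K c := by
    intro s
    induction s using Finset.induction with
    | empty =>
      intro v hv
      simp at hv
      rw [hv]; exact zero_mem _
    | insert a s has ih =>
      intro v hv
      set Qp : (ZMod p)[X] := ∏ c ∈ s, (X - C c) with hQp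
      set k : ZMod p := Qp.eval a with hk
      have hk0 : k ≠ 0 := by
        rw [hk, hQp, eval_prod, Finset.prod_ne_zero_iff]
        intro c hc
        rw [eval_sub, eval_X, eval_C, sub_ne_zero]
        rintro rfl
        exact has hc
      set u := aeval T Qp v with hu
      have huK : u ∈ K a := by
        rw [Finset.prod_insert has, map_mul, Module.End.mul_apply] at hv
        rw [hmemK, ← sub_eq_zero]
        simpa [hu, Algebra.algebraMap_eq_smul_one] using hv
      have hQu : aeval T Qp u = k • u := by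
        have hall : ∀ R : (ZMod p)[X], aeval T R u = R.eval a • u := by
          intro R
          induction R using Polynomial.induction_on' with
          | add f g hf hg => rw [map_add, LinearMap.add_apply, hf, hg, eval_add, add_smul]
          | monomial i b =>
            have hp' : ∀ j : ℕ, (T ^ j) u = a ^ j • u := by
              intro j
              induction j with
              | zero => simp
              | succ j ihj =>
                rw [pow_succ', Module.End.mul_apply, ihj, map_smul, (hmemK a u).mp huK, smul_smul,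
                  pow_succ]
            rw [aeval_monomial, eval_monomial, Module.End.mul_apply, hp',
              Algebra.algebraMap_eq_smul_one, LinearMap.smul_apply, Module.End.one_apply, smul_smul]
        exact hall Qp
      have h1 : v - k⁻¹ • u ∈ ⨆ c, K c := by
        apply ih
        rw [map_sub, map_smul, hQu, smul_smul, inv_mul_cancel₀ hk0, one_smul, hu, sub_self]
      have h2 : k⁻¹ • u ∈ ⨆ c, K c :=
        Submodule.smul_mem _ _ (le_iSup K a huK)
      simpa using add_mem h1 h2
  have htop : ∀ v, v ∈ ⨆ c, K c := by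
    intro v
    refine key Finset.univ v ?_
    have h1 : (∏ c : ZMod p, (X - C c)) = (X ^ p - X : (ZMod p)[X]) := by
      have hroots := FiniteField.roots_X_pow_card_sub_X (ZMod p)
      rw [ZMod.card] at hroots
      have hmonic : (X ^ p - X : (ZMod p)[X]).Monic :=
        monic_X_pow_sub (by rw [degree_X]; exact_mod_cast hp.out.one_lt)
      have hdeg : (X ^ p - X : (ZMod p)[X]).natDegree = p :=
        FiniteField.X_pow_card_sub_X_natDegree_eq _ hp.out.one_lt
      have h := prod_multiset_X_sub_C_of_monic_of_roots_card_eq hmonic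
        (by rw [hroots, hdeg]; simp)
      rw [hroots] at h
      exact h
    rw [h1]
    simp [hTp]
  let E : ZMod p → Subgroup W := fun c =>
    { carrier := {w | Additive.ofMul w ∈ K c}
      one_mem' := (K c).zero_mem
      mul_mem' := fun ha hb => (K c).add_mem ha hb
      inv_mem' := fun ha => (K c).neg_mem ha }
  refine ⟨E, ?_, ?_, ?_⟩
  · rw [eq_top_iff]
    intro w _
    have hle : (⨆ c, K c).toAddSubgroup ≤ Subgroup.toAddSubgroup (⨆ c, E c) := by
      intro v hv
      exact Submodule.iSup_induction K (motive := fun v => v.toMul ∈ ⨆ c, E c) hv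
        (fun c v hv => le_iSup E c (show v.toMul ∈ E c from hv)) (one_mem _)
        fun a b ha hb => mul_mem ha hb
    exact hle (htop (Additive.ofMul w))
  · intro c w hw
    show Additive.ofMul (τ w) ∈ K c
    have hcomm : Commute T f := ((Commute.refl f).add_left (Commute.pow_self f p))
    have h1 : T (f (Additive.ofMul w)) = f (T (Additive.ofMul w)) :=
      congrArg (fun g : Module.End (ZMod p) (Additive W) => g (Additive.ofMul w)) hcomm.eq
    rw [hmemK]
    show T (f (Additive.ofMul w)) = c • f (Additive.ofMul w)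
    rw [h1, show T (Additive.ofMul w) = c • Additive.ofMul w from (hmemK c _).mp hw, map_smul]
  · intro c w hw
    have h := (hmemK c _).mp hw
    have hsymm : (τ ^ p) w = τ.symm w := by
      apply τ.injective
      rw [MulEquiv.apply_symm_apply, ← MulAut.mul_apply, ← pow_succ']
      obtain ⟨j, hj⟩ := hq1
      rw [hj, pow_mul, hτ, one_pow, MulAut.one_apply]
    apply Additive.ofMul.injective
    rw [← hsymm, ofMul_mul, ofMul_pow]
    have h2 : f (Additive.ofMul w) + (f ^ p) (Additive.ofMul w) = c • Additive.ofMul w := h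
    rw [hfpow] at h2
    rw [← Nat.cast_smul_eq_nsmul (ZMod p), ZMod.natCast_zmod_val]
    exact h2

end CfsgLib.OddLocal
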