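import Cfsg.Agent.OddLocal.QAut
import Cfsg.Agent.PGroup.Frattini
import Cfsg.Agent.PGroup.Normal
import Cfsg.Agent.PGroup.UniqueOrderP
import Cfsg.Agent.PGroup.Aut
import Cfsg.Agent.Coprime.FixOrderP
import Cfsg.Agent.Eq.Def_CaseTheorems
import Cfsg.Prelude.Def_CaseTheorems

/-!
A non-abelian `p`-group of rank at most two with an automorphism of prime order
`q ∤ p (p - 1)` that is trivial on no proper quotient has order `p ^ 3`.
-/

set_option autoImplicit false

open scoped commutatorElement

namespace CfsgLib.OddLocal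

variable {p : ℕ} [hp : Fact p.Prime]

/-- A fixed-point-free automorphism of prime order `q ∣ p + 1` of a `p`-group whose elements of
order `p` are central and number at most `p ^ 2` only exists if the group is abelian. -/
theorem commutative_of_fixedPointFree (hp2 : p ≠ 2) {q : ℕ} (hq : q.Prime)
    (hqp : ¬ q ∣ p * (p - 1)) (hq1 : q ∣ p + 1) :
    ∀ (P : Type*) [Group P] [Finite P], IsPGroup p P → ∀ σ : MulAut P, σ ^ q = 1 →
      (∀ x, σ x = x → x = 1) → (∀ x : P, x ^ p = 1 → x ∈ Subgroup.center P) →
      Nat.card {x : P // x ^ p = 1} ≤ p ^ 2 → ∀ a b : P, a * b = b * a := by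
  classical
  intro P _ _
  induction h : Nat.card P using Nat.strong_induction_on generalizing P with
  | _ n ih =>
  subst h
  intro hP σ hσ hfree hcen hD
  have hqp' : q ≠ p := fun h => hqp (by rw [h]; exact dvd_mul_right p _)
  rcases subsingleton_or_nontrivial P with hs | hnt
  · exact fun a b => Subsingleton.elim _ _
  have hproper : ∀ M : Subgroup P, M ≠ ⊤ → (∀ m ∈ M, σ m ∈ M) →
      ∀ a ∈ M, ∀ b ∈ M, a * b = b * a := by
    intro M hM hMσ a ha b hb
    have hlt : Nat.card M < Nat.card P :=
      lt_of_le_of_ne (Nat.le_of_dvd Nat.card_pos (Subgroup.card_subgroup_dvd_card M))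
        fun h => hM (Subgroup.eq_top_of_card_eq M h)
    set τ := restrictAut σ M (map_eq_of_le hMσ)
    have hτ : τ ^ q = 1 := MulEquiv.ext fun x => Subtype.ext (by
      rw [restrictAut_pow, hσ, MulAut.one_apply, MulAut.one_apply])
    have h := ih (Nat.card M) hlt M rfl (hP.to_subgroup M) τ hτ
      (fun x hx => Subtype.ext (hfree x (congrArg Subtype.val hx)))
      (fun x hx => Subgroup.mem_center_iff.mpr fun y => Subtype.ext
        (Subgroup.mem_center_iff.mp (hcen x (by simpa using congrArg Subtype.val hx)) y))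
      (le_trans (Nat.card_le_card_of_injective
        (fun x : {x : M // x ^ p = 1} =>
          (⟨x.1, by simpa using congrArg Subtype.val x.2⟩ : {x : P // x ^ p = 1}))
        (fun x y hxy => Subtype.ext (Subtype.ext (congrArg Subtype.val hxy :)))) hD)
      ⟨a, ha⟩ ⟨b, hb⟩
    exact congrArg Subtype.val h
  set Φ := frattini P with hΦ
  have hΦσ : ∀ x ∈ Φ, σ x ∈ Φ := fun x hx =>
    (Subgroup.characteristic_iff_map_le.mp (inferInstance : (frattini P).Characteristic) σ)
      ⟨x, hx, rfl⟩
  letI : CommGroup (P ⧸ Φ) :=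
    { (inferInstance : Group (P ⧸ Φ)) with
      mul_comm := CfsgLib.PGroup.frattini_quotient_comm hP }
  set τ : MulAut (P ⧸ Φ) := QuotientGroup.congr Φ Φ σ (map_eq_of_le hΦσ) with hτdef
  have hτx : ∀ x : P, τ (x : P ⧸ Φ) = ((σ x : P) : P ⧸ Φ) := fun x => rfl
  have hτpow : ∀ (k : ℕ) (x : P), (τ ^ k) (x : P ⧸ Φ) = (((σ ^ k) x : P) : P ⧸ Φ) := by
    intro k
    induction k with
    | zero => intro x; simp
    | succ k ihk =>
      intro x; rw [pow_succ', MulAut.mul_apply, ihk, pow_succ', MulAut.mul_apply, hτx]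
  have hτq : τ ^ q = 1 := MulEquiv.ext fun y => by
    obtain ⟨y, rfl⟩ := QuotientGroup.mk_surjective y
    rw [hτpow, hσ]; rfl
  have hexpW := CfsgLib.PGroup.frattini_quotient_pow hP
  obtain ⟨E, hEtop, hEinv, hEc⟩ := iSup_eigen_eq_top hexpW hq1 τ hτq
  have hsquare : ∀ c, ∀ w ∈ E c, τ (τ w) = (τ w) ^ c.val * w⁻¹ := by
    intro c w hw
    have h1 := hEc c (τ w) (hEinv c w hw)
    rw [MulEquiv.symm_apply_apply] at h1
    exact eq_mul_inv_of_mul_eq h1
  -- if the Frattini subgroup is central, the Frattini quotient has order at most `p ^ 2`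
  have hcentral : Φ ≤ Subgroup.center P → Nat.card (P ⧸ Φ) ≤ p ^ 2 := by
    intro hle
    have hpow : ∀ x y : P, (y * x) ^ p = y ^ p * x ^ p := by
      intro x y
      set z := ⁅x, y⁆ with hz
      have hzc : z ∈ Subgroup.center P :=
        hle (CfsgLib.PGroup.commutatorElement_mem_frattini hP x y)
      have hxy : x * y = z * y * x := by simp [hz, commutatorElement_def]
      have hzx : Commute z x := (Subgroup.mem_center_iff.mp hzc x).symm
      have hzy : Commute z y := (Subgroup.mem_center_iff.mp hzc y).symm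
      obtain ⟨h1, h2⟩ := CfsgLib.Coprime.mul_pow_of_central_commutator hxy hzx hzy
      have hzp : z ^ p = 1 := by
        have h3 := h1 p
        have h4 := Subgroup.mem_center_iff.mp
          (hle (CfsgLib.PGroup.pow_prime_mem_frattini hP x)) y
        rw [← h4, mul_assoc] at h3
        exact (mul_eq_right.mp h3.symm)
      rw [h2 p]
      obtain ⟨j, hj⟩ := hp.out.dvd_choose_self (k := 2) (by norm_num)
        (lt_of_le_of_ne hp.out.two_le (Ne.symm hp2))
      rw [hj, pow_mul, hzp, one_pow, one_mul]
    let f : P →* P :=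
      { toFun := fun x => x ^ p
        map_one' := one_pow p
        map_mul' := fun x y => hpow y x }
    have hker : Nat.card f.ker ≤ p ^ 2 := hD
    have hrange : Nat.card f.range ≤ Nat.card Φ := by
      refine Nat.le_of_dvd Nat.card_pos (Subgroup.card_dvd_of_le ?_)
      rintro _ ⟨x, rfl⟩
      exact CfsgLib.PGroup.pow_prime_mem_frattini hP x
    have h1 := f.ker.card_mul_index
    rw [Subgroup.index_ker] at h1
    have h2 := Φ.card_mul_index
    rw [← Subgroup.index_eq_card]
    refine Nat.le_of_mul_le_mul_left (show Nat.card Φ * Φ.index ≤ Nat.card Φ * p ^ 2 from ?_)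
      Nat.card_pos
    rw [h2, ← h1, mul_comm (Nat.card Φ)]
    exact Nat.mul_le_mul hker hrange
  -- proper invariant subgroups over `Φ` generating `P` make `Φ` central
  have hgen : ∀ (ι : Type) (M : ι → Subgroup P), (∀ i, M i ≠ ⊤) → (∀ i, ∀ m ∈ M i, σ m ∈ M i) →
      (∀ i, Φ ≤ M i) → (⨆ i, M i) = ⊤ → Φ ≤ Subgroup.center P := by
    intro ι M hne hinv hΦM htop z hz
    have hle : (⨆ i, M i) ≤ Subgroup.centralizer ({z} : Set P) :=
      iSup_le fun i m hm => Subgroup.mem_centralizer_iff.mpr fun y hy => by
        rw [Set.mem_singleton_iff.mp hy]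
        exact hproper (M i) (hne i) (hinv i) z (hΦM i hz) m hm
    rw [htop] at hle
    exact Subgroup.mem_center_iff.mpr fun g =>
      (Subgroup.mem_centralizer_iff.mp (hle (Subgroup.mem_top g)) z rfl).symm
  have hWle : Nat.card (P ⧸ Φ) ≤ p ^ 2 := by
    by_cases hc : ∃ c, E c = ⊤
    · obtain ⟨c, hc⟩ := hc
      let L : P ⧸ Φ → Subgroup (P ⧸ Φ) := fun w => Subgroup.closure {w, τ w}
      have hL : ∀ w, ∀ v ∈ L w, τ v ∈ L w := by
        intro w v hv
        induction hv using Subgroup.closure_induction with
        | mem y hy =>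
          rcases hy with hy | hy
          · rw [hy]; exact Subgroup.subset_closure (Or.inr rfl)
          · rw [Set.mem_singleton_iff.mp hy, hsquare c w (by rw [hc]; trivial)]
            exact (L w).mul_mem
              ((L w).pow_mem (Subgroup.subset_closure
                (show τ w ∈ ({w, τ w} : Set (P ⧸ Φ)) from Or.inr rfl)) _)
              ((L w).inv_mem (Subgroup.subset_closure
                (show w ∈ ({w, τ w} : Set (P ⧸ Φ)) from Or.inl rfl)))
        | one => rw [map_one]; exact one_mem _
        | mul a b _ _ iha ihb => rw [map_mul]; exact mul_mem iha ihb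
        | inv a _ iha => rw [map_inv]; exact inv_mem iha
      by_cases hall : ∃ w, L w = ⊤
      · obtain ⟨w, hw⟩ := hall
        let g : Multiplicative (ZMod p) × Multiplicative (ZMod p) → P ⧸ Φ :=
          fun ij => w ^ (Multiplicative.toAdd ij.1).val * (τ w) ^ (Multiplicative.toAdd ij.2).val
        have hsurj : Function.Surjective g := by
          intro y
          have hy : y ∈ L w := by rw [hw]; trivial
          have hmod : ∀ (u : P ⧸ Φ) (k : ℤ), ∃ i : ZMod p, u ^ k = u ^ i.val := by
            intro u k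
            refine ⟨(k : ZMod p), ?_⟩
            conv_lhs => rw [← Int.emod_add_mul_ediv k p]
            rw [zpow_add, zpow_mul, zpow_natCast, hexpW, one_zpow, mul_one, ← ZMod.val_intCast,
              zpow_natCast]
          rw [show L w = Subgroup.closure {w, τ w} from rfl, Subgroup.mem_closure_pair] at hy
          obtain ⟨i, j, hij⟩ := hy
          obtain ⟨i', hi'⟩ := hmod w i
          obtain ⟨j', hj'⟩ := hmod (τ w) j
          exact ⟨(Multiplicative.ofAdd i', Multiplicative.ofAdd j'),
            by simp only [g, toAdd_ofAdd]; rw [← hi', ← hj', hij]⟩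
        refine (Nat.card_le_card_of_surjective g hsurj).trans (le_of_eq ?_)
        rw [Nat.card_prod, Nat.card_congr Multiplicative.toAdd, Nat.card_zmod, pow_two]
      · push Not at hall
        refine hcentral ?_
        obtain ⟨ι, M, h1, h2, h3, h4⟩ : ∃ (ι : Type) (M : ι → Subgroup P), (∀ i, M i ≠ ⊤) ∧
            (∀ i, ∀ m ∈ M i, σ m ∈ M i) ∧ (∀ i, Φ ≤ M i) ∧ (⨆ i, M i) = ⊤ := by
          obtain ⟨n', ⟨e⟩⟩ := Finite.exists_equiv_fin (P ⧸ Φ)
          refine ⟨Fin n', fun i => (L (e.symm i)).comap (QuotientGroup.mk' Φ),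
            fun i hi => hall (e.symm i) ?_, fun i m hm => ?_, fun i => ?_, ?_⟩
          · simp only at hi
            rw [← Subgroup.map_comap_eq_self_of_surjective (QuotientGroup.mk'_surjective Φ)
              (L (e.symm i)), hi, Subgroup.map_top_of_surjective _ (QuotientGroup.mk'_surjective Φ)]
          · exact hL _ _ hm
          · intro z hz
            show QuotientGroup.mk' Φ z ∈ L _
            rw [show QuotientGroup.mk' Φ z = 1 from (QuotientGroup.eq_one_iff z).mpr hz]
            exact one_mem _
          · rw [eq_top_iff]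
            intro x _
            refine Subgroup.mem_iSup_of_mem (e (x : P ⧸ Φ)) ?_
            show (x : P ⧸ Φ) ∈ L _
            rw [e.symm_apply_apply]
            exact Subgroup.subset_closure (Or.inl rfl)
        exact hgen ι M h1 h2 h3 h4
    · push Not at hc
      refine hcentral ?_
      obtain ⟨ι, M, h1, h2, h3, h4⟩ : ∃ (ι : Type) (M : ι → Subgroup P), (∀ i, M i ≠ ⊤) ∧
          (∀ i, ∀ m ∈ M i, σ m ∈ M i) ∧ (∀ i, Φ ≤ M i) ∧ (⨆ i, M i) = ⊤ := by
        refine ⟨ZMod p, fun c => (E c).comap (QuotientGroup.mk' Φ),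
          fun c hi => hc c ?_, fun c m hm => ?_, fun c => ?_, ?_⟩
        · simp only at hi
          rw [← Subgroup.map_comap_eq_self_of_surjective (QuotientGroup.mk'_surjective Φ) (E c),
            hi, Subgroup.map_top_of_surjective _ (QuotientGroup.mk'_surjective Φ)]
        · exact hEinv c _ hm
        · intro z hz
          show QuotientGroup.mk' Φ z ∈ E c
          rw [show QuotientGroup.mk' Φ z = 1 from (QuotientGroup.eq_one_iff z).mpr hz]
          exact one_mem _
        · rw [← Subgroup.comap_top (QuotientGroup.mk' Φ), ← hEtop]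
          apply le_antisymm (iSup_le fun c => Subgroup.comap_mono (le_iSup E c))
          have hmap : ((⨆ c, (E c).comap (QuotientGroup.mk' Φ))).map (QuotientGroup.mk' Φ) =
              ⨆ c, E c := by
            rw [Subgroup.map_iSup]
            exact iSup_congr fun c => Subgroup.map_comap_eq_self_of_surjective
              (QuotientGroup.mk'_surjective Φ) _
          rw [← hmap, Subgroup.comap_map_eq, QuotientGroup.ker_mk']
          refine sup_le le_rfl (le_trans ?_ (le_iSup _ (0 : ZMod p)))
          intro z hz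
          show QuotientGroup.mk' Φ z ∈ E 0
          rw [show QuotientGroup.mk' Φ z = 1 from (QuotientGroup.eq_one_iff z).mpr hz]
          exact one_mem _
      exact hgen ι M h1 h2 h3 h4
  -- two generators `x`, `σ x`
  have hfreeW : ∀ w : P ⧸ Φ, τ w = w → w = 1 := by
    intro w hw
    obtain ⟨x, rfl⟩ := QuotientGroup.mk_surjective w
    rw [hτx] at hw
    exact (QuotientGroup.eq_one_iff x).mpr
      (mem_of_fixed_mod hP hq hqp' hσ hfree Φ hΦσ (QuotientGroup.eq.mp hw.symm))
  obtain ⟨x, hx⟩ : ∃ x, x ∉ Φ := by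
    by_contra hc
    push Not at hc
    exact CfsgLib.PGroup.frattini_ne_top (eq_top_iff.mpr fun y _ => hc y)
  have hxy : Subgroup.closure ({x, σ x} : Set P) = ⊤ := by
    rw [CfsgLib.PGroup.closure_eq_top_iff, Set.image_pair]
    set w : P ⧸ Φ := QuotientGroup.mk' Φ x with hw
    set L := Subgroup.closure ({w, QuotientGroup.mk' Φ (σ x)} : Set (P ⧸ Φ))
    have hwne : w ≠ 1 := fun h => hx ((QuotientGroup.eq_one_iff x).mp h)
    have hWp : IsPGroup p (P ⧸ Φ) := hP.to_quotient Φ
    obtain ⟨l, hl⟩ := IsPGroup.iff_card.mp (hWp.to_subgroup L)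
    obtain ⟨r, hr⟩ := IsPGroup.iff_card.mp hWp
    have hr2 : r ≤ 2 := (Nat.pow_le_pow_iff_right hp.out.one_lt).mp (hr ▸ hWle)
    have hlr : l ≤ r := (Nat.pow_le_pow_iff_right hp.out.one_lt).mp
      (hl ▸ hr ▸ Nat.le_of_dvd Nat.card_pos (Subgroup.card_subgroup_dvd_card L))
    apply Subgroup.eq_top_of_card_eq
    rw [hl, hr]
    congr 1
    by_contra hne
    have hwL : w ∈ L := Subgroup.subset_closure (Or.inl rfl)
    have hl0 : l ≠ 0 := by
      rintro rfl
      rw [pow_zero, Subgroup.card_eq_one] at hl
      rw [hl, Subgroup.mem_bot] at hwL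
      exact hwne hwL
    have hl1 : l = 1 := by omega
    have hzw : Subgroup.zpowers w = L := by
      refine Subgroup.eq_of_le_of_card_ge (Subgroup.zpowers_le.mpr hwL) ?_
      rw [hl, hl1, pow_one, Nat.card_zpowers, orderOf_eq_prime (hexpW w) hwne]
    have hτw : τ w ∈ Subgroup.zpowers w := by
      rw [hzw]; exact Subgroup.subset_closure (Or.inr rfl)
    have hinv : ∀ v ∈ Subgroup.zpowers w, τ v ∈ Subgroup.zpowers w := by
      rintro v ⟨k, rfl⟩
      show τ (w ^ k) ∈ Subgroup.zpowers w
      rw [map_zpow]; exact zpow_mem hτw k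
    have h1 := MulEquiv.congr_fun (aut_cyclic_eq_one (hWp.to_subgroup (Subgroup.zpowers w)) hq hqp
      (τ := restrictAut τ _ (map_eq_of_le hinv)) (MulEquiv.ext fun v => Subtype.ext (by
        rw [restrictAut_pow, hτq, MulAut.one_apply, MulAut.one_apply])))
      ⟨w, Subgroup.mem_zpowers w⟩
    exact hwne (hfreeW w (congrArg Subtype.val h1))
  -- the derived subgroup is trivial
  set N : Subgroup P := ⁅commutator P, (⊤ : Subgroup P)⁆ with hN
  have hNn : N.Normal := inferInstance
  have hNc : N ≤ commutator P := Subgroup.commutator_le_left _ _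
  set c := ⁅x, σ x⁆ with hc
  have hcP : c ∈ commutator P := by
    rw [commutator_def]
    exact Subgroup.commutator_mem_commutator (Subgroup.mem_top _) (Subgroup.mem_top _)
  set K := Subgroup.zpowers c ⊔ N with hK
  have hKle : K ≤ commutator P := sup_le (Subgroup.zpowers_le.mpr hcP) hNc
  have hKn : K.Normal := by
    refine ⟨fun k hk g => ?_⟩
    have h1 : ⁅k, g⁆ ∈ N := Subgroup.commutator_mem_commutator (hKle hk) (Subgroup.mem_top g)
    have e : g * k * g⁻¹ = ⁅k, g⁆⁻¹ * k := by simp [commutatorElement_def]; group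
    rw [e]
    exact mul_mem (Subgroup.mem_sup_right (inv_mem h1)) hk
  have hKtop : K = commutator P := by
    refine le_antisymm hKle ?_
    rw [commutator_def, Subgroup.commutator_le]
    intro a _ b _
    have hcl : Subgroup.closure ({QuotientGroup.mk' K x, QuotientGroup.mk' K (σ x)} : Set (P ⧸ K)) = ⊤ := by
      rw [← Set.image_pair, ← MonoidHom.map_closure, hxy,
        Subgroup.map_top_of_surjective _ (QuotientGroup.mk'_surjective K)]
    have hc1 : Commute (QuotientGroup.mk' K x) (QuotientGroup.mk' K (σ x)) := by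
      rw [← commutatorElement_eq_one_iff_commute, ← map_commutatorElement]
      exact (QuotientGroup.eq_one_iff _).mpr (Subgroup.mem_sup_left (Subgroup.mem_zpowers c))
    have hcomm := (Subgroup.isMulCommutative_closure
      (k := ({QuotientGroup.mk' K x, QuotientGroup.mk' K (σ x)} : Set (P ⧸ K))) (by
        rintro u (rfl | rfl) v (rfl | rfl)
        · rfl
        · exact hc1.eq
        · exact hc1.eq.symm
        · rfl)).is_comm.comm
    rw [← QuotientGroup.eq_one_iff, ← QuotientGroup.mk'_apply, map_commutatorElement]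
    exact commutatorElement_eq_one_iff_commute.mpr (congrArg Subtype.val
      (hcomm ⟨_, by rw [hcl]; trivial⟩ ⟨_, by rw [hcl]; trivial⟩))
  have hKσ : ∀ m ∈ commutator P, σ m ∈ commutator P := fun m hm =>
    (Subgroup.characteristic_iff_map_le.mp (inferInstance : (commutator P).Characteristic) σ)
      ⟨m, hm, rfl⟩
  have hNσ : ∀ m ∈ N, σ m ∈ N := fun m hm =>
    (Subgroup.characteristic_iff_map_le.mp (inferInstance : N.Characteristic) σ) ⟨m, hm, rfl⟩
  haveI : (N.subgroupOf (commutator P)).Normal := hNn.subgroupOf _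
  haveI : IsCyclic (↥(commutator P) ⧸ N.subgroupOf (commutator P)) := by
    refine ⟨⟨((⟨c, hcP⟩ : ↥(commutator P)) : _ ⧸ N.subgroupOf (commutator P)), fun y => ?_⟩⟩
    obtain ⟨⟨y, hy⟩, rfl⟩ := QuotientGroup.mk_surjective y
    have hy' : y ∈ ((Subgroup.zpowers c ⊔ N : Subgroup P) : Set P) := by rw [← hK, hKtop]; exact hy
    rw [Subgroup.mul_normal (Subgroup.zpowers c) N] at hy'
    obtain ⟨u, ⟨k, rfl⟩, v, hv, huv⟩ := Set.mem_mul.mp hy'
    refine ⟨k, ?_⟩
    show ((⟨c, hcP⟩ : ↥(commutator P)) : _ ⧸ N.subgroupOf (commutator P)) ^ k = _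
    rw [← QuotientGroup.mk_zpow, QuotientGroup.eq, Subgroup.mem_subgroupOf]
    simpa [← huv] using hv
  have hfix := mul_inv_mem_of_cyclic_section hP hq hqp hσ hKσ hNσ hcP
  have hcN : c ∈ N := mem_of_fixed_mod hP hq hqp' hσ hfree N hNσ hfix
  have hPN : commutator P ≤ N := by
    rw [← hKtop]; exact sup_le (Subgroup.zpowers_le.mpr hcN) le_rfl
  have hbot : commutator P = ⊥ := by
    haveI := hP.isNilpotent
    obtain ⟨m, hm⟩ := Subgroup.nilpotent_iff_lowerCentralSeries.mp
      (inferInstance : Group.IsNilpotent P)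
    have hstep : ∀ k, commutator P ≤ Subgroup.lowerCentralSeries (⊤ : Subgroup P) k := by
      intro k
      induction k with
      | zero => simp
      | succ k ihk =>
        rw [Subgroup.lowerCentralSeries_succ]
        exact hPN.trans (Subgroup.commutator_mono ihk le_rfl)
    exact eq_bot_iff.mpr ((hstep m).trans hm.le)
  intro a b
  refine commutatorElement_eq_one_iff_mul_comm.mp (Subgroup.mem_bot.mp (hbot ▸ ?_))
  rw [commutator_def]
  exact Subgroup.commutator_mem_commutator (Subgroup.mem_top a) (Subgroup.mem_top b)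

/-- Bender–Glauberman 4.16 (the case `q ∣ p + 1`). -/
theorem card_eq_cube {P : Type*} [Group P] [Finite P] (hp2 : p ≠ 2) (hP : IsPGroup p P)
    (hr : Cfsg.PRankLE p 2 P) {q : ℕ} (hq : q.Prime) (hqp : ¬ q ∣ p * (p - 1)) (hq1 : q ∣ p + 1)
    (σ : MulAut P) (hσ : σ ^ q = 1) (hne : σ ≠ 1) (D : Subgroup P) [D.Characteristic]
    (hexp : ∀ x ∈ D, x ^ p = 1) (hclass : ∀ a ∈ D, ∀ b ∈ D, ∀ d ∈ D, Commute ⁅a, b⁆ d)
    (hdet : (∀ d ∈ D, σ d = d) → σ = 1)
    (hgen : ∀ N : Subgroup P, (∀ x, σ x * x⁻¹ ∈ N) → N = ⊤)
    (hna : ¬ ∀ a b : P, a * b = b * a) : Nat.card P = p ^ 3 := by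
  classical
  have hqp' : q ≠ p := fun h => hqp (by rw [h]; exact dvd_mul_right p _)
  have hchar : ∀ N : Subgroup P, N.Characteristic → ∀ x ∈ N, σ x ∈ N := fun N hN x hx =>
    (Subgroup.characteristic_iff_map_le.mp hN σ) ⟨x, hx, rfl⟩
  have hcard1 : ∀ M : Subgroup P, (∀ m ∈ M, σ m ∈ M) → Nat.card M = p →
      ∀ m ∈ M, σ m = m := by
    intro M hM hc
    refine fixes_step hP hq hqp hσ (M₀ := ⊥) bot_le hM
      (fun m _ n hn => by rw [Subgroup.mem_bot.mp hn]; simp) (by rw [Subgroup.card_bot, mul_one, hc])
      fun n hn => by rw [Subgroup.mem_bot.mp hn, map_one]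
  have hpow : ∀ H : Subgroup P, ∃ n, Nat.card H = p ^ n := fun H =>
    IsPGroup.iff_card.mp (hP.to_subgroup H)
  have hsmall : ∀ s : Set P, (∀ a ∈ s, ∀ b ∈ s, a * b = b * a) → (∀ a ∈ s, a ^ p = 1) →
      Nat.card (Subgroup.closure s) ≤ p ^ 2 := by
    intro s hs he
    have hc := Subgroup.isMulCommutative_closure hs
    refine hr _ hc fun a ha => ?_
    suffices a ∈ Subgroup.closure s ∧ a ^ p = 1 from this.2
    induction ha using Subgroup.closure_induction with
    | mem y hy => exact ⟨Subgroup.subset_closure hy, he y hy⟩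
    | one => exact ⟨one_mem _, one_pow _⟩
    | mul a b _ _ iha ihb =>
      refine ⟨mul_mem iha.1 ihb.1, ?_⟩
      rw [Commute.mul_pow (congrArg Subtype.val
        (hc.is_comm.comm (⟨a, iha.1⟩ : Subgroup.closure s) ⟨b, ihb.1⟩)), iha.2, ihb.2, one_mul]
    | inv a _ iha => exact ⟨inv_mem iha.1, by rw [inv_pow, iha.2, inv_one]⟩
  haveI hDn : D.Normal := inferInstance
  by_cases hab : ∀ a ∈ D, ∀ b ∈ D, a * b = b * a
  · exfalso
    obtain ⟨d, hd⟩ := hpow D
    have hd2 : d ≤ 2 := (Nat.pow_le_pow_iff_right hp.out.one_lt).mp (by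
      rw [← hd]
      exact hr D (IsMulCommutative.of_comm fun a b => Subtype.ext (hab a a.2 b b.2)) hexp)
    have hd2' : d = 2 := by
      rcases Nat.lt_or_ge d 1 with h | h
      · exfalso
        apply hne; apply hdet
        rw [show d = 0 by omega, pow_zero, Subgroup.card_eq_one] at hd
        intro x hx
        rw [hd, Subgroup.mem_bot] at hx
        rw [hx, map_one]
      rcases Nat.lt_or_ge d 2 with h' | h'
      · exfalso
        exact hne (hdet (hcard1 D (hchar D inferInstance) (by rw [hd, show d = 1 by omega, pow_one])))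
      omega
    -- irreducibility
    have hirr : ∀ L : Subgroup P, L ≤ D → (∀ x ∈ L, σ x ∈ L) → L ≠ ⊥ → L = D := by
      intro L hLD hL hLne
      by_contra hLne'
      obtain ⟨l, hl⟩ := hpow L
      have hlt : l < 2 := (Nat.pow_lt_pow_iff_right hp.out.one_lt).mp (by
        rw [← hl, ← hd2', ← hd]
        exact lt_of_not_ge fun h => hLne' (Subgroup.eq_of_le_of_card_ge hLD h))
      have hl1 : l = 1 := by
        rcases Nat.eq_zero_or_pos l with h | h
        · rw [h, pow_zero, Subgroup.card_eq_one] at hl; exact absurd hl hLne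
        · omega
      refine hne (hdet (fixes_step hP hq hqp hσ hLD (hchar D inferInstance) (fun m hm n hn => ?_)
        (by rw [hd, hd2', hl, hl1]; ring) (hcard1 L hL (by rw [hl, hl1, pow_one]))))
      rw [hab m hm n (hLD hn), mul_inv_cancel_right]
      exact hn
    -- `D` is central
    have hDZ : D ≤ Subgroup.center P := by
      by_contra hnc
      have hne' : ⁅(⊤ : Subgroup P), D⁆ ≠ ⊥ := fun h => hnc fun x hx => Subgroup.mem_center_iff.mpr
        fun g => commutatorElement_eq_one_iff_mul_comm.mp
          (Subgroup.mem_bot.mp (h ▸ Subgroup.commutator_mem_commutator (Subgroup.mem_top g) hx))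
      haveI : (⁅(⊤ : Subgroup P), D⁆).Characteristic := inferInstance
      have hEq : ⁅(⊤ : Subgroup P), D⁆ = D :=
        hirr _ (Subgroup.commutator_le_right _ _) (hchar _ inferInstance) hne'
      haveI := hP.isNilpotent
      obtain ⟨m, hm⟩ := Subgroup.nilpotent_iff_lowerCentralSeries.mp
        (inferInstance : Group.IsNilpotent P)
      have hstep : ∀ k, D ≤ Subgroup.lowerCentralSeries (⊤ : Subgroup P) k := by
        intro k
        induction k with
        | zero => simp
        | succ k ihk =>
          rw [Subgroup.lowerCentralSeries_succ]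
          conv_lhs => rw [← hEq, Subgroup.commutator_comm]
          exact Subgroup.commutator_mono ihk le_rfl
      exact hnc ((hstep m).trans (hm.le.trans bot_le))
    have hΩ : ∀ x : P, x ^ p = 1 → x ∈ D := by
      intro x hx
      have hle := hsmall ((D : Set P) ∪ {x}) (by
        rintro a (ha | rfl) b (hb | rfl)
        · exact hab a ha b hb
        · exact (Subgroup.mem_center_iff.mp (hDZ ha) b).symm
        · exact Subgroup.mem_center_iff.mp (hDZ hb) a
        · rfl) (by
        rintro a (ha | rfl)
        · exact hexp a ha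
        · exact hx)
      rw [Subgroup.eq_of_le_of_card_ge (H := D) (K := Subgroup.closure ((D : Set P) ∪ {x}))
        (fun a ha => Subgroup.subset_closure (Or.inl ha)) (by rw [hd, hd2']; exact hle)]
      exact Subgroup.subset_closure (Or.inr rfl)
    refine hna (commutative_of_fixedPointFree hp2 hq hqp hq1 P hP σ hσ ?_
      (fun x hx => hDZ (hΩ x hx)) ?_)
    · intro x hx
      by_contra hx1
      obtain ⟨k, hk0, hk⟩ : ∃ k, 0 < k ∧ orderOf x = p ^ k := by
        obtain ⟨j, hj⟩ := hP x
        obtain ⟨i, -, hi⟩ := (Nat.dvd_prime_pow hp.out).mp (orderOf_dvd_of_pow_eq_one hj)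
        exact ⟨i, Nat.pos_of_ne_zero fun h => hx1 (orderOf_eq_one_iff.mp (by rw [hi, h, pow_zero])), hi⟩
      set y := x ^ p ^ (k - 1) with hy
      have hyp : y ^ p = 1 := by
        rw [hy, ← pow_mul, ← pow_succ, show k - 1 + 1 = k by omega, ← hk, pow_orderOf_eq_one]
      have hy1 : y ≠ 1 := fun h => by
        have := Nat.le_of_dvd (pow_pos hp.out.pos _) (hk ▸ orderOf_dvd_of_pow_eq_one h)
        have := (Nat.pow_le_pow_iff_right hp.out.one_lt).mp this
        omega
      have hyfix : σ y = y := by rw [hy, map_pow, hx]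
      have hL := hirr (Subgroup.zpowers y) (Subgroup.zpowers_le.mpr (hΩ y hyp)) (by
        rintro z ⟨i, rfl⟩
        show σ (y ^ i) ∈ _
        rw [map_zpow, hyfix]; exact ⟨i, rfl⟩) (fun h => hy1 (Subgroup.zpowers_eq_bot.mp h))
      refine hne (hdet fun z hz => ?_)
      rw [← hL] at hz
      obtain ⟨i, rfl⟩ := hz
      show σ (y ^ i) = y ^ i
      rw [map_zpow, hyfix]
    · refine le_trans (Nat.card_le_card_of_injective (fun x : {x : P // x ^ p = 1} =>
        (⟨x.1, hΩ x.1 x.2⟩ : D)) (fun x y h => Subtype.ext (congrArg Subtype.val h :))) ?_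
      rw [hd, hd2']
  · push Not at hab
    obtain ⟨x₀, hx₀, y₀, hy₀, hxy₀⟩ := hab
    set Z : Subgroup P := D ⊓ Subgroup.centralizer (D : Set P) with hZ
    have hZmem : ∀ a ∈ D, ∀ b ∈ D, ⁅a, b⁆ ∈ Z := fun a ha b hb =>
      ⟨D.mul_mem (D.mul_mem (D.mul_mem ha hb) (D.inv_mem ha)) (D.inv_mem hb),
        Subgroup.mem_centralizer_iff.mpr fun d hd => (hclass a ha b hb d hd).eq.symm⟩
    have hZsmall : ∀ d ∈ D, Nat.card (Subgroup.closure ((Z : Set P) ∪ {d})) ≤ p ^ 2 := by
      intro d hd
      refine hsmall _ ?_ ?_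
      · rintro a (ha | rfl) b (hb | rfl)
        · exact (Subgroup.mem_centralizer_iff.mp hb.2 a ha.1)
        · exact (Subgroup.mem_centralizer_iff.mp ha.2 b hd).symm
        · exact Subgroup.mem_centralizer_iff.mp hb.2 a hd
        · rfl
      · rintro a (ha | rfl)
        · exact hexp a ha.1
        · exact hexp a hd
    have hx₀Z : x₀ ∉ Z := fun h => hxy₀ (Subgroup.mem_centralizer_iff.mp h.2 y₀ hy₀).symm
    obtain ⟨i, hi⟩ := hpow Z
    have hi1 : i = 1 := by
      set L := Subgroup.closure ((Z : Set P) ∪ {x₀})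
      obtain ⟨l, hl⟩ := hpow L
      have hlt : Z < L := lt_of_le_of_ne (fun a ha => Subgroup.subset_closure (Or.inl ha))
        fun h => hx₀Z (by rw [h]; exact Subgroup.subset_closure (Or.inr rfl))
      have h1 := (Nat.pow_lt_pow_iff_right hp.out.one_lt).mp (show p ^ i < p ^ l by
        rw [← hi, ← hl]
        exact lt_of_not_ge fun h => hlt.ne (Subgroup.eq_of_le_of_card_ge hlt.le h))
      have h2 := (Nat.pow_le_pow_iff_right hp.out.one_lt).mp (hl ▸ hZsmall x₀ hx₀)
      rcases Nat.eq_zero_or_pos i with h | h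
      · rw [h, pow_zero, Subgroup.card_eq_one] at hi
        have := hZmem x₀ hx₀ y₀ hy₀
        rw [hi, Subgroup.mem_bot] at this
        exact absurd (commutatorElement_eq_one_iff_mul_comm.mp this) hxy₀
      · omega
    have hZcard : Nat.card Z = p := by rw [hi, hi1, pow_one]
    -- commutation with `x₀` has kernel `Z⟨x₀⟩`
    let δ : D →* Z :=
      { toFun := fun b => ⟨⁅x₀, (b : P)⁆, hZmem x₀ hx₀ b b.2⟩
        map_one' := by simp [commutatorElement_def]
        map_mul' := fun a b => by
          apply Subtype.ext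
          show ⁅x₀, (a : P) * b⁆ = ⁅x₀, (a : P)⁆ * ⁅x₀, (b : P)⁆
          have h1 : ⁅x₀, (a : P) * b⁆ = ⁅x₀, (a : P)⁆ * ((a : P) * ⁅x₀, (b : P)⁆ * (a : P)⁻¹) := by
            simp [commutatorElement_def]; group
          rw [h1, ← (hclass x₀ hx₀ b b.2 a a.2).eq, mul_inv_cancel_right] }
    have hD3 : Nat.card D ≤ p ^ 3 := by
      have h1 := δ.ker.card_mul_index
      rw [Subgroup.index_ker] at h1
      rw [← h1, pow_succ]
      refine Nat.mul_le_mul ?_ ?_
      · rw [← Subgroup.card_map_of_injective (K := δ.ker) D.subtype_injective]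
        refine le_trans (Nat.le_of_dvd Nat.card_pos (Subgroup.card_dvd_of_le ?_)) (hZsmall x₀ hx₀)
        rintro _ ⟨b, hb, rfl⟩
        have hbx : x₀ * (b : P) = (b : P) * x₀ :=
          commutatorElement_eq_one_iff_mul_comm.mp (congrArg Subtype.val (MonoidHom.mem_ker.mp hb))
        set L := Subgroup.closure ((Z : Set P) ∪ {x₀})
        set L' := Subgroup.closure (((Z : Set P) ∪ {x₀}) ∪ {(b : P)})
        have hle' : Nat.card L' ≤ p ^ 2 := by
          refine hsmall _ ?_ ?_
          · rintro u ((hu | rfl) | rfl) v ((hv | rfl) | rfl)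
            · exact Subgroup.mem_centralizer_iff.mp hv.2 u hu.1
            · exact (Subgroup.mem_centralizer_iff.mp hu.2 v hx₀).symm
            · exact (Subgroup.mem_centralizer_iff.mp hu.2 _ b.2).symm
            · exact Subgroup.mem_centralizer_iff.mp hv.2 u hx₀
            · rfl
            · exact hbx
            · exact Subgroup.mem_centralizer_iff.mp hv.2 _ b.2
            · exact hbx.symm
            · rfl
          · rintro u ((hu | rfl) | rfl)
            · exact hexp u hu.1
            · exact hexp u hx₀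
            · exact hexp _ b.2
        obtain ⟨l, hl⟩ := hpow L
        have hlt : Z < L := lt_of_le_of_ne (fun a ha => Subgroup.subset_closure (Or.inl ha))
          fun h => hx₀Z (by rw [h]; exact Subgroup.subset_closure (Or.inr rfl))
        have hl2 : 2 ≤ l := by
          have h1' := (Nat.pow_lt_pow_iff_right hp.out.one_lt).mp (show p ^ i < p ^ l by
            rw [← hi, ← hl]
            exact lt_of_not_ge fun h => hlt.ne (Subgroup.eq_of_le_of_card_ge hlt.le h))
          omega
        rw [Subgroup.eq_of_le_of_card_ge (H := L) (K := L')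
          (Subgroup.closure_mono Set.subset_union_left)
          (hle'.trans (by rw [hl]; exact Nat.pow_le_pow_right hp.out.pos hl2))]
        exact Subgroup.subset_closure (Or.inr rfl)
      · rw [← hZcard]
        exact Nat.le_of_dvd Nat.card_pos (Subgroup.card_subgroup_dvd_card δ.range)
    obtain ⟨d, hd⟩ := hpow D
    have hd3 : d = 3 := by
      have hle := (Nat.pow_le_pow_iff_right hp.out.one_lt).mp (hd ▸ hD3)
      by_contra hne3
      have hdD : IsMulCommutative D := by
        rcases Nat.lt_or_ge d 2 with h | h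
        · haveI : IsCyclic D := by
            rcases Nat.lt_or_ge d 1 with h' | h'
            · haveI : Subsingleton D :=
                (Nat.card_eq_one_iff_unique.mp (by rw [hd, show d = 0 by omega, pow_zero])).1
              exact isCyclic_of_subsingleton
            · exact isCyclic_of_prime_card (p := p) (by rw [hd, show d = 1 by omega, pow_one])
          exact IsMulCommutative.of_comm IsCyclic.commGroup.mul_comm
        · exact IsMulCommutative.of_comm
            (IsPGroup.commutative_of_card_eq_prime_sq (p := p) (by rw [hd, show d = 2 by omega]))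
      exact hxy₀ (congrArg Subtype.val (hdD.is_comm.comm (⟨x₀, hx₀⟩ : D) ⟨y₀, hy₀⟩))
    have hZn : Z.Normal := inferInstance
    have hZσ : ∀ z ∈ Z, σ z = z := by
      refine hcard1 Z (fun z hz => ⟨hchar D inferInstance z hz.1, ?_⟩) hZcard
      refine Subgroup.mem_centralizer_iff.mpr fun w hw => ?_
      obtain ⟨w', hw', rfl⟩ : ∃ w' ∈ D, σ w' = w :=
        (Subgroup.characteristic_iff_map_eq.mp (inferInstance : D.Characteristic) σ).ge hw
      rw [← map_mul, ← map_mul, Subgroup.mem_centralizer_iff.mp hz.2 w' hw']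
    have hirr : ∀ L : Subgroup P, Z ≤ L → L ≤ D → (∀ x ∈ L, σ x ∈ L) → L.Normal →
        L ≠ Z → L = D := by
      intro L hZL hLD hL hLn hLne
      by_contra hLne'
      obtain ⟨l, hl⟩ := hpow L
      have hlt : l < 3 := (Nat.pow_lt_pow_iff_right hp.out.one_lt).mp (by
        rw [← hl, ← hd3, ← hd]
        exact lt_of_not_ge fun h => hLne' (Subgroup.eq_of_le_of_card_ge hLD h))
      have hgt : i < l := (Nat.pow_lt_pow_iff_right hp.out.one_lt).mp (by
        rw [← hl, ← hi]
        exact lt_of_not_ge fun h => hLne (Subgroup.eq_of_le_of_card_ge hZL h).symm)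
      have hlfix := fixes_step hP hq hqp hσ hZL hL
        (fun m _ n hn => hZn.conj_mem n hn m)
        (by rw [hl, hZcard, show l = 2 by omega]; ring) hZσ
      exact hne (hdet (fixes_step hP hq hqp hσ hLD (hchar D inferInstance)
        (fun m _ n hn => hLn.conj_mem n hn m)
        (by rw [hd, hd3, hl, show l = 2 by omega]; ring) hlfix))
    have hZlt : Z < D := lt_of_le_of_ne inf_le_left fun h => hx₀Z (h ▸ hx₀)
    -- `[P, D] ≤ Z`
    have hcomm : ⁅(⊤ : Subgroup P), D⁆ ≤ Z := by
      by_contra hnle
      have hEq : ⁅(⊤ : Subgroup P), D⁆ ⊔ Z = D := by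
        refine hirr _ le_sup_right (sup_le (Subgroup.commutator_le_right _ _) inf_le_left)
          (fun x hx => ?_) inferInstance (fun h => hnle (le_sup_left.trans h.le))
        have hle : (⁅(⊤ : Subgroup P), D⁆ ⊔ Z).map σ.toMonoidHom ≤ ⁅(⊤ : Subgroup P), D⁆ ⊔ Z := by
          rw [Subgroup.map_sup]
          refine sup_le_sup ?_ ?_
          · exact Subgroup.characteristic_iff_map_le.mp inferInstance σ
          · rintro _ ⟨z, hz, rfl⟩
            exact (hZσ z hz).symm ▸ hz
        exact hle ⟨x, hx, rfl⟩
      haveI := hP.isNilpotent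
      obtain ⟨m, hm⟩ := Subgroup.nilpotent_iff_lowerCentralSeries.mp
        (inferInstance : Group.IsNilpotent P)
      have hstep : ∀ k, D ≤ Subgroup.lowerCentralSeries (⊤ : Subgroup P) k ⊔ Z := by
        intro k
        induction k with
        | zero => simp
        | succ k ihk =>
          conv_lhs => rw [← hEq]
          refine sup_le ?_ le_sup_right
          rw [Subgroup.commutator_comm, Subgroup.lowerCentralSeries_succ, Subgroup.commutator_le]
          intro a ha g hg
          have ha' : a ∈ ((Subgroup.lowerCentralSeries (⊤ : Subgroup P) k ⊔ Z : Subgroup P) : Set P) :=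
            ihk ha
          rw [Subgroup.mul_normal _ Z] at ha'
          obtain ⟨u, hu, z, hz, rfl⟩ := Set.mem_mul.mp ha'
          have e : ⁅u * z, g⁆ = (u * ⁅z, g⁆ * u⁻¹) * ⁅u, g⁆ := by
            simp [commutatorElement_def]; group
          rw [e]
          refine mul_mem (Subgroup.mem_sup_right (hZn.conj_mem _ ?_ u))
            (Subgroup.mem_sup_left (Subgroup.commutator_mem_commutator hu hg))
          have e' : ⁅z, g⁆ = z * (g * z⁻¹ * g⁻¹) := by simp [commutatorElement_def]; group
          rw [e']
          exact Z.mul_mem hz (hZn.conj_mem _ (Z.inv_mem hz) g)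
      have h := hstep m
      rw [hm, bot_sup_eq] at h
      exact (not_le_of_gt hZlt) h
    set C := Subgroup.centralizer (D : Set P) with hC
    haveI hCn : C.Normal := inferInstance
    -- `C` is cyclic
    have hCcyc : IsCyclic C := by
      refine CfsgLib.PGroup.isCyclic_of_unique_subgroup (p := p) hp2 (hP.to_subgroup C)
        fun x y hx hy => ?_
      have hmemZ : ∀ u : C, orderOf u = p → (u : P) ∈ Z := by
        intro u hu
        have hup : (u : P) ^ p = 1 := by rw [← hu, Subgroup.orderOf_coe u |>.symm, pow_orderOf_eq_one]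
        by_contra huZ
        set L := Subgroup.closure ((Z : Set P) ∪ {x₀})
        set L' := Subgroup.closure (((Z : Set P) ∪ {x₀}) ∪ {(u : P)})
        have hle' : Nat.card L' ≤ p ^ 2 := by
          refine hsmall _ ?_ ?_
          · rintro v ((hv | rfl) | rfl) w ((hw | rfl) | rfl)
            · exact Subgroup.mem_centralizer_iff.mp hw.2 v hv.1
            · exact (Subgroup.mem_centralizer_iff.mp hv.2 w hx₀).symm
            · exact Subgroup.mem_centralizer_iff.mp u.2 v hv.1
            · exact Subgroup.mem_centralizer_iff.mp hw.2 v hx₀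
            · rfl
            · exact Subgroup.mem_centralizer_iff.mp u.2 v hx₀
            · exact (Subgroup.mem_centralizer_iff.mp u.2 w hw.1).symm
            · exact (Subgroup.mem_centralizer_iff.mp u.2 w hx₀).symm
            · rfl
          · rintro v ((hv | rfl) | rfl)
            · exact hexp v hv.1
            · exact hexp v hx₀
            · exact hup
        obtain ⟨l, hl⟩ := hpow L
        have hlt : Z < L := lt_of_le_of_ne (fun a ha => Subgroup.subset_closure (Or.inl ha))
          fun h => hx₀Z (by rw [h]; exact Subgroup.subset_closure (Or.inr rfl))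
        have hl2 : 2 ≤ l := by
          have h1' := (Nat.pow_lt_pow_iff_right hp.out.one_lt).mp (show p ^ i < p ^ l by
            rw [← hi, ← hl]
            exact lt_of_not_ge fun h => hlt.ne (Subgroup.eq_of_le_of_card_ge hlt.le h))
          omega
        have hLeq : L = L' := Subgroup.eq_of_le_of_card_ge
          (Subgroup.closure_mono Set.subset_union_left)
          (hle'.trans (by rw [hl]; exact Nat.pow_le_pow_right hp.out.pos hl2))
        have huL : (u : P) ∈ L := by rw [hLeq]; exact Subgroup.subset_closure (Or.inr rfl)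
        have hLD : L ≤ D := (Subgroup.closure_le _).mpr (Set.union_subset (fun a ha => ha.1)
          (Set.singleton_subset_iff.mpr hx₀))
        exact huZ ⟨hLD huL, u.2⟩
      have hxZ : Subgroup.zpowers (x : P) = Z := by
        refine Subgroup.eq_of_le_of_card_ge (Subgroup.zpowers_le.mpr (hmemZ x hx)) ?_
        rw [hZcard, Nat.card_zpowers, Subgroup.orderOf_coe, hx]
      obtain ⟨k, hk⟩ := (hxZ ▸ hmemZ y hy : (y : P) ∈ Subgroup.zpowers (x : P))
      exact ⟨k, Subtype.ext (by simpa using hk)⟩
    -- `σ` is trivial on `C`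
    have hCσ : ∀ c ∈ C, σ c = c := by
      haveI := hCcyc
      have h1 := aut_cyclic_eq_one (hP.to_subgroup C) hq hqp
        (τ := restrictAut σ C (map_eq_of_le (hchar C inferInstance)))
        (MulEquiv.ext fun v => Subtype.ext (by
          rw [restrictAut_pow, hσ, MulAut.one_apply, MulAut.one_apply]))
      exact fun c hc => congrArg Subtype.val (MulEquiv.congr_fun h1 ⟨c, hc⟩)
    -- two generators of `D` modulo `Z`
    have hCidx : C.index ≤ p ^ 2 := by
      set L := Subgroup.closure ((Z : Set P) ∪ {x₀})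
      obtain ⟨w, hwD, hw⟩ : ∃ w ∈ D, w ∉ L := by
        by_contra hc'
        push Not at hc'
        have := (Nat.le_of_dvd Nat.card_pos (Subgroup.card_dvd_of_le hc')).trans (hZsmall x₀ hx₀)
        rw [hd, hd3] at this
        exact absurd this (not_le.mpr (Nat.pow_lt_pow_right hp.out.one_lt (by norm_num)))
      set L' := Subgroup.closure (((Z : Set P) ∪ {x₀}) ∪ {w})
      have hL'D : L' ≤ D := (Subgroup.closure_le _).mpr (Set.union_subset
        (Set.union_subset (fun a ha => ha.1) (Set.singleton_subset_iff.mpr hx₀))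
        (Set.singleton_subset_iff.mpr hwD))
      have hL'eq : L' = D := by
        refine Subgroup.eq_of_le_of_card_ge hL'D ?_
        obtain ⟨l', hl'⟩ := hpow L'
        obtain ⟨l, hl⟩ := hpow L
        have hlt : L < L' := lt_of_le_of_ne (Subgroup.closure_mono Set.subset_union_left)
          fun h => hw (by rw [h]; exact Subgroup.subset_closure (Or.inr rfl))
        have hlt0 : Z < L := lt_of_le_of_ne (fun a ha => Subgroup.subset_closure (Or.inl ha))
          fun h => hx₀Z (by rw [h]; exact Subgroup.subset_closure (Or.inr rfl))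
        have h1 := (Nat.pow_lt_pow_iff_right hp.out.one_lt).mp (show p ^ l < p ^ l' by
          rw [← hl, ← hl']
          exact lt_of_not_ge fun h => hlt.ne (Subgroup.eq_of_le_of_card_ge hlt.le h))
        have h2 := (Nat.pow_lt_pow_iff_right hp.out.one_lt).mp (show p ^ i < p ^ l by
          rw [← hi, ← hl]
          exact lt_of_not_ge fun h => hlt0.ne (Subgroup.eq_of_le_of_card_ge hlt0.le h))
        rw [hd, hl', hd3]
        exact Nat.pow_le_pow_right hp.out.pos (by omega)
      have hcz : ∀ r : P, ∀ a ∈ D, ⁅r, a⁆ ∈ Z := fun r a ha =>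
        hcomm (Subgroup.commutator_mem_commutator (Subgroup.mem_top r) ha)
      let f : (P ⧸ C) → Z × Z := fun r =>
        (⟨⁅r.out, x₀⁆, hcz _ _ hx₀⟩, ⟨⁅r.out, w⁆, hcz _ _ hwD⟩)
      have hf : Function.Injective f := by
        intro r s hrs
        simp only [f, Prod.mk.injEq, Subtype.mk.injEq] at hrs
        rw [← QuotientGroup.out_eq' r, ← QuotientGroup.out_eq' s, QuotientGroup.eq]
        set g := r.out⁻¹ * s.out with hg
        have hone : ∀ a ∈ D, ⁅r.out, a⁆ = ⁅s.out, a⁆ → a * g = g * a := by
          intro a _ h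
          simp only [commutatorElement_def] at h
          have h' : r.out * a * r.out⁻¹ = s.out * a * s.out⁻¹ := mul_right_cancel h
          calc a * g = r.out⁻¹ * (r.out * a * r.out⁻¹) * s.out := by rw [hg]; group
            _ = g * a := by rw [h', hg]; group
        have hle : L' ≤ Subgroup.centralizer ({g} : Set P) := by
          rw [Subgroup.closure_le]
          rintro v ((hv | rfl) | rfl)
          · refine Subgroup.mem_centralizer_iff.mpr fun y hy => ?_
            rw [Set.mem_singleton_iff.mp hy]
            refine (hone v hv.1 ?_).symm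
            have hz : ∀ t : P, ⁅t, v⁆ = 1 := by
              intro t
              have hmapv : ∀ a b : P, a ∈ Z → b ∈ D → a * b = b * a := fun a b ha hb =>
                (Subgroup.mem_centralizer_iff.mp ha.2 b hb).symm
              have hvc : v ∈ Subgroup.center P := by
                have hle1 := CfsgLib.PGroup.le_center_of_card_eq hP Z hZcard
                exact hle1 hv
              exact commutatorElement_eq_one_iff_mul_comm.mpr (Subgroup.mem_center_iff.mp hvc t)
            rw [hz, hz]
          · refine Subgroup.mem_centralizer_iff.mpr fun y hy => ?_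
            rw [Set.mem_singleton_iff.mp hy]
            exact (hone _ hx₀ hrs.1).symm
          · refine Subgroup.mem_centralizer_iff.mpr fun y hy => ?_
            rw [Set.mem_singleton_iff.mp hy]
            exact (hone _ hwD hrs.2).symm
        rw [hL'eq] at hle
        exact Subgroup.mem_centralizer_iff.mpr fun a ha =>
          (Subgroup.mem_centralizer_iff.mp (hle ha) g rfl).symm
      rw [Subgroup.index_eq_card]
      refine (Nat.card_le_card_of_injective f hf).trans (le_of_eq ?_)
      rw [Nat.card_prod, hZcard, pow_two]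
    -- `P = D C`
    have hidx1 : (D ⊔ C).index = 1 := by
      set M := D ⊔ C
      have hrel : p ^ 2 ≤ C.relIndex M := by
        have h1 : C.relIndex M = C.relIndex D := by
          show C.relIndex (D ⊔ C) = _
          rw [Subgroup.relIndex_sup_right]
        have h2 : C.relIndex D * Nat.card Z = Nat.card D := by
          have h := (C.subgroupOf D).index_mul_card
          rwa [show Nat.card ↥(C.subgroupOf D) = Nat.card Z by
            rw [hZ, inf_comm, ← Subgroup.inf_subgroupOf_right,
              Nat.card_congr (Subgroup.subgroupOfEquivOfLe (inf_le_right : C ⊓ D ≤ D)).toEquiv]] at h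
        rw [hd, hd3, hZcard, pow_succ] at h2
        rw [h1]
        exact (Nat.eq_of_mul_eq_mul_right hp.out.pos h2).ge
      have h3 := Subgroup.relIndex_mul_index (le_sup_right : C ≤ M)
      have h4 : 0 < M.index := Nat.pos_of_ne_zero Subgroup.index_ne_zero_of_finite
      by_contra h5
      have h6 : p ^ 2 * 2 ≤ C.relIndex M * M.index := Nat.mul_le_mul hrel (by omega)
      have h7 : 0 < p ^ 2 := pow_pos hp.out.pos 2
      rw [h3] at h6
      omega
    have hfinal : D = ⊤ := by
      refine hgen D fun r => ?_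
      have hr' : r ∈ ((D ⊔ C : Subgroup P) : Set P) := by
        rw [Subgroup.index_eq_one.mp hidx1]; trivial
      rw [Subgroup.mul_normal D C] at hr'
      obtain ⟨u, hu, c, hc, rfl⟩ := Set.mem_mul.mp hr'
      rw [map_mul, hCσ c hc, mul_inv_rev, mul_assoc, mul_inv_cancel_left]
      exact D.mul_mem (hchar D inferInstance u hu) (D.inv_mem hu)
    rw [← Subgroup.card_top (G := P), ← hfinal, hd, hd3]

end CfsgLib.OddLocal
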